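import Mathlib
import Cfsg.Agent.H955.QM5
import Cfsg.Agent.H955.KMat

/-!
# Elements of prime order of `Ω` and self-adjoint quadratic extensions, matrix form
-/

set_option autoImplicit false

namespace Cfsg.Agent.H955

open Module QuadraticMap Cfsg.Agent.LieClassical.OrthCore Cfsg.Agent.LieClassical.OrthTrans
open Cfsg.Agent.LieClassical.OrthFinite
open scoped MatrixGroups

universe u v w

variable {ι : Type} [Fintype ι] [DecidableEq ι] {F : Type u} [Field F] {Q : QuadraticForm F (ι → F)}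

theorem map_omegaGL (Q : QuadraticForm F (ι → F)) :
    (Cfsg.Geo.omegaGL (⇑Q)).map (glEquiv ι F).toMonoidHom = ⁅O Q, O Q⁆ := by
  rw [← map_Omega, isometryHom, ← Subgroup.map_map]
  rfl

theorem map_omegaGL_of_good (hG : Good Q) :
    (Cfsg.Geo.omegaGL (⇑Q)).map (glEquiv ι F).toMonoidHom = E Q := by
  rw [map_omegaGL, hG.commutator_eq_E]

theorem mem_omegaGL_iff_E (hG : Good Q) {g : GL ι F} :
    g ∈ Cfsg.Geo.omegaGL (⇑Q) ↔ glEquiv ι F g ∈ E Q := by
  rw [← map_omegaGL_of_good hG]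
  constructor
  · intro h
    exact ⟨g, h, rfl⟩
  · rintro ⟨x, hx, hxg⟩
    rwa [← (glEquiv ι F).injective hxg]

theorem two_ne_zero_of_odd {F : Type*} [Field F] [Finite F] (h : Odd (Nat.card F)) :
    (2 : F) ≠ 0 := by
  have := natCast_ne_zero_of_not_dvd (F := F) (r := 2) (by
    rw [← even_iff_two_dvd, Nat.not_even_iff_odd]
    exact h)
  exact_mod_cast this

/-- **the theorem for both types** -/
theorem main_orth [Nonempty ι] [Finite F] (hQ : Nondeg Q) (h2 : (2 : F) ≠ 0) {d : ℕ} (hd : 4 ≤ d)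
    (hcard : Fintype.card ι = 2 * d) {K : Subalgebra F (Matrix ι ι F)}
    (hK : Cfsg.Geo.IsFieldSubalgebra 2 K) (hKf : Cfsg.Geo.IsSelfAdjointFor (polar Q) K)
    {r : ℕ} [hrp : Fact r.Prime]
    (hΩ : r ∣ (Cfsg.Geo.subalgebraNormalizer K).relIndex (Cfsg.Geo.omegaGL (⇑Q))) :
    (∀ x ∈ Cfsg.Geo.omegaGL (⇑Q),
      (∃ z : F, ((x ^ r : GL ι F) : Matrix ι ι F) = z • (1 : Matrix ι ι F)) →
      (∀ z : F, (x : Matrix ι ι F) ≠ z • (1 : Matrix ι ι F)) →
      ∃ g ∈ Cfsg.Geo.omegaGL (⇑Q), g⁻¹ * x * g ∈ Cfsg.Geo.subalgebraNormalizer K) ↔ r = 2 := by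
  have hr := hrp.out
  have hfr : finrank F (ι → F) = 2 * d := by
    rw [Module.finrank_fintype_fun_eq_card, hcard]
  have hG : Good Q := good_of_finite hQ (by omega)
  obtain ⟨M, hM, μ, hMM, hns, hspan⟩ := exists_gen h2 hK
  have hnorm := fun g => mem_normalizer_iff (g := g) hK hM hMM hspan
  have hM2 : ∀ v, Matrix.toLin' M (Matrix.toLin' M v) = μ • v := fun v => by
    rw [Matrix.toLin'_apply, Matrix.toLin'_apply, Matrix.mulVec_mulVec, hMM, Matrix.smul_mulVec,
      Matrix.one_mulVec]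
  have hQM : QM Q (Matrix.toLin' M) μ := ⟨hQ, hM2, fun u v => hKf M hM u v⟩
  constructor
  · intro hall
    by_contra hr2
    have hro : Odd r := hr.odd_of_ne_two hr2
    refine hQM.false_of_odd h2 hns hG hd hfr (N := (Cfsg.Geo.subalgebraNormalizer K).map
      (glEquiv ι F).toMonoidHom) ?_ hr2 ?_ ?_
    · intro g hg
      refine ⟨(glEquiv ι F).symm g, ?_, MulEquiv.apply_symm_apply _ _⟩
      change _ ∈ Cfsg.Geo.subalgebraNormalizer K
      rw [hnorm, MulEquiv.apply_symm_apply]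
      exact Or.inl hg.2
    · rw [← map_omegaGL_of_good hG, Subgroup.relIndex_map_map_of_injective _ _
        (glEquiv ι F).injective]
      exact hΩ
    · intro T hT hTr hTs
      have hTt : glEquiv ι F ((glEquiv ι F).symm T) = T := MulEquiv.apply_symm_apply _ _
      obtain ⟨g, hg, hgN⟩ := hall ((glEquiv ι F).symm T) (by
        rw [mem_omegaGL_iff_E hG, hTt]
        exact hT) ⟨1, by rw [← map_pow, hTr, map_one, one_smul]; rfl⟩ (by
        intro z hz
        obtain ⟨v, hv⟩ := hTs z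
        apply hv
        have h3 := glEquiv_apply ((glEquiv ι F).symm T) v
        rw [hTt, hz, Matrix.smul_mulVec, Matrix.one_mulVec] at h3
        exact h3)
      rw [hnorm, map_mul, map_mul, map_inv, hTt] at hgN
      exact ⟨glEquiv ι F g, (mem_omegaGL_iff_E hG).1 hg,
        comm_of_odd h2 hro (conj_pow_eq_one hTr) hgN⟩
  · rintro rfl x hx ⟨z, hz⟩ hxs
    rw [mem_omegaGL_iff_E hG] at hx
    set X := glEquiv ι F x with hX
    have hXX : ∀ v, X (X v) = z • v := by
      intro v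
      have h3 : X (X v) = ((x ^ 2 : GL ι F) : Matrix ι ι F).mulVec v := by
        rw [hX, glEquiv_apply, glEquiv_apply, Matrix.mulVec_mulVec, pow_two, Units.val_mul]
      rw [h3, hz, Matrix.smul_mulVec, Matrix.one_mulVec]
    have hz2 : z = 1 ∨ z = -1 :=
      mul_self_eq_one_iff.1 (scalar_sq_O hQ (by omega) (T := X * X)
        (mul_mem (E_le_O hx) (E_le_O hx)) hXX)
    have hnonsc : ∀ c : F, ∃ v, X v ≠ c • v := by
      intro c
      by_contra hcon
      push Not at hcon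
      apply hxs c
      apply Matrix.mulVec_injective
      funext v
      rw [← glEquiv_apply, Matrix.smul_mulVec, Matrix.one_mulVec]
      exact hcon v
    have hfin : ∀ g ∈ E Q,
        ((∀ v, (g * X * g⁻¹) (Matrix.toLin' M v) = Matrix.toLin' M ((g * X * g⁻¹) v)) ∨
        (∀ v, (g * X * g⁻¹) (Matrix.toLin' M v) = - Matrix.toLin' M ((g * X * g⁻¹) v))) →
        ∃ g ∈ Cfsg.Geo.omegaGL (⇑Q), g⁻¹ * x * g ∈ Cfsg.Geo.subalgebraNormalizer K := by
      intro g hg h3
      refine ⟨((glEquiv ι F).symm g)⁻¹, ?_, ?_⟩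
      · rw [mem_omegaGL_iff_E hG, map_inv, MulEquiv.apply_symm_apply]
        exact inv_mem hg
      · rw [hnorm, inv_inv, map_mul, map_mul, map_inv, MulEquiv.apply_symm_apply, ← hX]
        exact h3
    rcases hz2 with rfl | rfl
    · obtain ⟨g, hg, hgx⟩ := hQM.invol h2 hns hG ⟨d, by omega⟩ hx
        (fun v => by rw [hXX, one_smul]) (by
          obtain ⟨v, hv⟩ := hnonsc 1
          exact ⟨v, by rwa [one_smul] at hv⟩) (by
          obtain ⟨v, hv⟩ := hnonsc (-1)
          exact ⟨v, by rwa [neg_one_smul] at hv⟩)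
      exact hfin g hg (Or.inl hgx)
    · obtain ⟨g, hg, hgx⟩ := hQM.anti h2 hns hG ⟨d, by omega⟩ hx
        (fun v => by rw [hXX, neg_one_smul])
      exact hfin g hg (Or.inr hgx)

end Cfsg.Agent.H955
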