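import Mathlib
import Cfsg.Agent.H955.JSkew2

/-!
# Four-dimensional symplectic spaces with a self-adjoint `M`, `M² = μ` a non-square

Conjugacy of involutions and of elements of square `-1` in symplectic groups; elements commuting or
anticommuting with `M`.
-/

set_option autoImplicit false

namespace Cfsg.Agent.H955

open Module

universe u v w

section Conj

variable {F : Type u} [Field F] {V : Type v} [AddCommGroup V] [Module F V]
  [FiniteDimensional F V] {B : LinearMap.BilinForm F V}

omit [FiniteDimensional F V] in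
theorem neg_on_comS {x : V ≃ₗ[F] V} (hxx : ∀ v, x (x v) = v) {v : V} (hv : v ∈ comS x) :
    x v = - v := by
  obtain ⟨y, rfl⟩ := mem_comS.1 hv
  rw [map_sub, hxx]
  abel

theorem fix_on_orth (hB : IsSp B) {x : V ≃ₗ[F] V} (hx : x ∈ IsoB B)
    (hW : NdOn B (comS x)) {v : V} (hv : v ∈ orth B (comS x)) : x v = v := by
  rw [← sub_eq_zero]
  have h3 : x v - v ∈ comS x := sub_mem_comS x v
  have h4 : x v - v ∈ orth B (comS x) :=
    Submodule.sub_mem _ (inv_orth hx (inv_comS x) v hv) hv
  exact Submodule.disjoint_def.1 (disjoint_of_le_orth hW le_rfl hB.eps) _ h3 h4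

/-- involutions with commutator spaces of the same dimension are conjugate. -/
theorem exists_conj_invol (h2 : (2 : F) ≠ 0) (hB : IsSp B) {x y : V ≃ₗ[F] V} (hx : x ∈ IsoB B)
    (hy : y ∈ IsoB B) (hxx : ∀ v, x (x v) = v) (hyy : ∀ v, y (y v) = v)
    (hd : finrank F (comS x) = finrank F (comS y)) : ∃ g ∈ IsoB B, g * x * g⁻¹ = y := by
  have hsq : ∀ z : V ≃ₗ[F] V, (∀ v, z (z v) = v) → z ^ 2 = 1 := by
    intro z hz
    ext v
    rw [pow_two, LinearEquiv.mul_apply, hz]
    rfl
  have hWx := ndOn_comS hB.nd hx (n := 2) (by exact_mod_cast h2) (hsq x hxx)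
  have hWy := ndOn_comS hB.nd hy (n := 2) (by exact_mod_cast h2) (hsq y hyy)
  obtain ⟨g, hg, hgW⟩ := exists_iso_map_eq hB hWx hWy hd
  refine ⟨g, hg, ?_⟩
  have horth : ∀ v ∈ orth B (comS y), g.symm v ∈ orth B (comS x) := by
    intro v hv w hw
    have h3 := hg w (g.symm v)
    rw [LinearEquiv.apply_symm_apply] at h3
    rw [← h3]
    refine hv _ ?_
    rw [← hgW]
    exact ⟨w, hw, rfl⟩
  have hin : ∀ v ∈ comS y, g.symm v ∈ comS x := by
    intro v hv
    rw [← hgW] at hv
    obtain ⟨w, hw, rfl⟩ := hv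
    change g.symm (g w) ∈ comS x
    rw [LinearEquiv.symm_apply_apply]
    exact hw
  ext v
  obtain ⟨a, b, rfl⟩ := exists_add_compl (hWy.isCompl hB.eps) v
  rw [map_add, map_add]
  congr 1
  · change g (x (g.symm a)) = y a
    rw [neg_on_comS hxx (hin a a.2), map_neg, LinearEquiv.apply_symm_apply, neg_on_comS hyy a.2]
  · change g (x (g.symm b)) = y b
    rw [fix_on_orth hB hx hWx (horth b b.2), LinearEquiv.apply_symm_apply,
      fix_on_orth hB hy hWy b.2]

/-- isometries of square `-1` are conjugate. -/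
theorem exists_conj_neg [Finite F] (h2 : (2 : F) ≠ 0) (hB : IsSp B) {x y : V ≃ₗ[F] V}
    (hx : x ∈ IsoB B) (hy : y ∈ IsoB B) (hxx : ∀ v, x (x v) = - v) (hyy : ∀ v, y (y v) = - v) :
    ∃ g ∈ IsoB B, g * x * g⁻¹ = y := by
  have key : ∀ z ∈ IsoB B, (∀ v, z (z v) = - v) → JS B (z : V →ₗ[F] V) (-1) := by
    intro z hz hzz
    refine ⟨hB, fun v => ?_, fun u v => ?_⟩
    · rw [neg_one_smul]; exact hzz v
    · change B (z u) v = - B u (z v)
      have := hz u (z v)
      rw [hzz, map_neg] at this
      rw [← this, neg_neg]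
  obtain ⟨g, hg, hgx⟩ := (key x hx hxx).exists_equiv (key y hy hyy) h2 (neg_ne_zero.2 one_ne_zero)
    rfl
  refine ⟨g, hg, ?_⟩
  ext v
  change g (x (g.symm v)) = y v
  have := hgx (g.symm v)
  change g (x (g.symm v)) = y (g (g.symm v)) at this
  rw [this, LinearEquiv.apply_symm_apply]

/-- a nonscalar involution in dimension four. -/
theorem finrank_comS_four (h2 : (2 : F) ≠ 0) (hB : IsSp B) (hd : finrank F V = 4)
    {x : V ≃ₗ[F] V} (hx : x ∈ IsoB B) (hxx : ∀ v, x (x v) = v)
    (h1 : ∃ v, x v ≠ v) (h3 : ∃ v, x v ≠ - v) : finrank F (comS x) = 2 := by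
  have hx2 : x ^ 2 = 1 := by
    ext v
    rw [pow_two, LinearEquiv.mul_apply, hxx]
    rfl
  have hW := ndOn_comS hB.nd hx (n := 2) (by exact_mod_cast h2) hx2
  obtain ⟨a, ha⟩ := hB.even_of_ndOn hW
  have hle := Submodule.finrank_le (comS x)
  have hne0 : finrank F (comS x) ≠ 0 := by
    intro h
    rw [Submodule.finrank_eq_zero] at h
    obtain ⟨v, hv⟩ := h1
    apply hv
    have h4 := sub_mem_comS x v
    rw [h, Submodule.mem_bot, sub_eq_zero] at h4
    exact h4
  have hne4 : finrank F (comS x) ≠ 4 := by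
    intro h
    have h4 : comS x = ⊤ := Submodule.eq_top_of_finrank_eq (by rw [h, hd])
    obtain ⟨v, hv⟩ := h3
    exact hv (neg_on_comS hxx (by rw [h4]; trivial))
  omega

end Conj

section Four

variable {F : Type u} [Field F] {V : Type v} [AddCommGroup V] [Module F V]
  [FiniteDimensional F V] {B : LinearMap.BilinForm F V} {M : V →ₗ[F] V} {μ : F}

omit [FiniteDimensional F V] in
/-- an adapted basis `w, M w, w', M w'` -/
theorem exists_basis_four (h2 : (2 : F) ≠ 0) (hB : IsSp B) (hd : finrank F V = 4)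
    (hM : ∀ v, M (M v) = μ • v) (hns : ¬ IsSquare μ) (hsa : ∀ u v, B (M u) v = B u (M v)) :
    ∃ (w w' : V) (b : Basis (Fin 4) F V), (⇑b = ![w, M w, w', M w']) ∧ B w (M w) = 0 ∧
      B w' (M w') = 0 ∧ B w w' = 1 ∧ B (M w) w' = 0 := by
  have hμ : μ ≠ 0 := by
    rintro rfl
    exact hns ⟨0, by simp⟩
  have halt : ∀ v, B v (M v) = 0 := by
    intro v
    have h3 : B v (M v) = - B v (M v) := by
      nth_rewrite 1 [← hsa]
      exact hB.swap _ _
    have h4 : (2 : F) * B v (M v) = 0 := by linear_combination h3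
    exact (mul_eq_zero.1 h4).resolve_left h2
  have hVne : Nontrivial V := Module.nontrivial_of_finrank_pos (R := F) (by omega)
  obtain ⟨w, hw⟩ := exists_ne (0 : V)
  -- the functionals `B w`, `B (M w)` are independent
  obtain ⟨w', hw1, hw2⟩ : ∃ w', B w w' = 1 ∧ B (M w) w' = 0 := by
    have h3 : ∃ y, B (M w) y = 0 ∧ B w y ≠ 0 := by
      by_contra hcon
      push Not at hcon
      -- then `B w = c B (M w)`
      obtain ⟨z, hz⟩ : ∃ z, B (M w) z ≠ 0 := by
        by_contra h4
        push Not at h4
        have h5 := hB.nd (M w) h4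
        have h6 := hM w
        rw [h5, map_zero] at h6
        exact hw ((smul_eq_zero.1 h6.symm).resolve_left hμ)
      have h7 : ∀ y, B (w - (B w z / B (M w) z) • M w) y = 0 := by
        intro y
        have h8 := hcon (y - (B (M w) y / B (M w) z) • z) (by
          rw [map_sub, map_smul, smul_eq_mul]
          field_simp
          ring)
        rw [map_sub, map_smul, smul_eq_mul, sub_eq_zero] at h8
        rw [map_sub, map_smul, LinearMap.sub_apply, LinearMap.smul_apply, smul_eq_mul, h8]
        field_simp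
        ring
      have h9 := sub_eq_zero.1 (hB.nd _ h7)
      set c := B w z / B (M w) z with hc
      apply hns
      refine ⟨c⁻¹, ?_⟩
      have hc0 : c ≠ 0 := by
        intro h0
        rw [h0, zero_smul] at h9
        exact hw h9
      have h10 : M w = c • (M (M w)) := by
        nth_rewrite 1 [h9]
        rw [map_smul]
      rw [hM, smul_smul] at h10
      have h11 : (1 - c * (c * μ)) • w = 0 := by
        rw [sub_smul, one_smul, mul_smul, ← h10, ← h9, sub_self]
      have h12 := (smul_eq_zero.1 h11).resolve_right hw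
      field_simp
      linear_combination -h12
    obtain ⟨y, hy1, hy2⟩ := h3
    refine ⟨(B w y)⁻¹ • y, ?_, ?_⟩
    · rw [map_smul, smul_eq_mul, inv_mul_cancel₀ hy2]
    · rw [map_smul, hy1, smul_zero]
  have hw3 : B w (M w') = 0 := by rw [← hsa, hw2]
  have hw4 : B (M w) (M w') = μ := by rw [hsa, hM, map_smul, hw1, smul_eq_mul, mul_one]
  have e1 : B (M w) w = 0 := hB.eps.zero (halt w)
  have e2 : B (M w') w' = 0 := hB.eps.zero (halt w')
  have e3 : B w' w = -1 := by rw [hB.swap, hw1]
  have e4 : B w' (M w) = 0 := hB.eps.zero hw2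
  have e5 : B (M w') w = 0 := hB.eps.zero hw3
  have e6 : B (M w') (M w) = - μ := by rw [hB.swap, hw4]
  have hli : LinearIndependent F ![w, M w, w', M w'] := by
    rw [Fintype.linearIndependent_iff]
    intro g hg
    simp only [Fin.sum_univ_four, Matrix.cons_val_zero, Matrix.cons_val_one, Matrix.cons_val] at hg
    have f0 := congrArg (fun v => B v w') hg
    have f1 := congrArg (fun v => B v (M w')) hg
    have f2 := congrArg (fun v => B v w) hg
    have f3 := congrArg (fun v => B v (M w)) hg
    simp only [map_add, map_smul, LinearMap.add_apply, LinearMap.smul_apply, smul_eq_mul,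
      map_zero, LinearMap.zero_apply, hw1, hw2, hw3, hw4, e1, e2, e3, e4, e5, e6, halt, hB.alt,
      mul_zero, add_zero, zero_add, mul_one, mul_neg, neg_eq_zero] at f0 f1 f2 f3
    intro i
    fin_cases i
    · exact f0
    · exact (mul_eq_zero.1 f1).resolve_right hμ
    · exact f2
    · exact (mul_eq_zero.1 f3).resolve_right hμ
  refine ⟨w, w', basisOfLinearIndependentOfCardEqFinrank hli (by simp [hd]), by simp, halt w,
    halt w', hw1, hw2⟩

/-- an involution anticommuting with `M`, and an element of square `-1` commuting with `M`. -/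
theorem exists_elts_four (h2 : (2 : F) ≠ 0) (hB : IsSp B) (hd : finrank F V = 4)
    (hM : ∀ v, M (M v) = μ • v) (hns : ¬ IsSquare μ) (hsa : ∀ u v, B (M u) v = B u (M v)) :
    (∃ y ∈ IsoB B, (∀ v, y (y v) = v) ∧ (∃ v, y v ≠ v) ∧ (∃ v, y v ≠ - v) ∧
      ∀ v, y (M v) = - M (y v)) ∧
    ∃ z ∈ IsoB B, (∀ v, z (z v) = - v) ∧ ∀ v, z (M v) = M (z v) := by
  have hμ : μ ≠ 0 := by
    rintro rfl
    exact hns ⟨0, by simp⟩
  obtain ⟨w, w', b, hb, h0, h0', h1, h1'⟩ := exists_basis_four h2 hB hd hM hns hsa
  have hw3 : B w (M w') = 0 := by rw [← hsa, h1']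
  have hw4 : B (M w) (M w') = μ := by rw [hsa, hM, map_smul, h1, smul_eq_mul, mul_one]
  have e1 : B (M w) w = 0 := hB.eps.zero h0
  have e2 : B (M w') w' = 0 := hB.eps.zero h0'
  have e3 : B w' w = -1 := by rw [hB.swap, h1]
  have e4 : B w' (M w) = 0 := hB.eps.zero h1'
  have e5 : B (M w') w = 0 := hB.eps.zero hw3
  have e6 : B (M w') (M w) = - μ := by rw [hB.swap, hw4]
  have b0 : b 0 = w := by rw [hb]; rfl
  have b1 : b 1 = M w := by rw [hb]; rfl
  have b2 : b 2 = w' := by rw [hb]; rfl
  have b3 : b 3 = M w' := by rw [hb]; rfl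
  have hw0 : w ≠ 0 := by rw [← b0]; exact b.ne_zero 0
  have hMw0 : M w ≠ 0 := by rw [← b1]; exact b.ne_zero 1
  constructor
  · let Y : V →ₗ[F] V := b.constr F ![w, - M w, w', - M w']
    have Yw : Y w = w := by
      have := b.constr_basis F ![w, - M w, w', - M w'] 0
      rw [b0] at this
      exact this
    have YMw : Y (M w) = - M w := by
      have := b.constr_basis F ![w, - M w, w', - M w'] 1
      rw [b1] at this
      exact this
    have Yw' : Y w' = w' := by
      have := b.constr_basis F ![w, - M w, w', - M w'] 2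
      rw [b2] at this
      exact this
    have YMw' : Y (M w') = - M w' := by
      have := b.constr_basis F ![w, - M w, w', - M w'] 3
      rw [b3] at this
      exact this
    have hYY : Y ∘ₗ Y = LinearMap.id := by
      apply b.ext
      intro i
      fin_cases i
      · change Y (Y (b 0)) = b 0
        rw [b0, Yw, Yw]
      · change Y (Y (b 1)) = b 1
        rw [b1, YMw, map_neg, YMw, neg_neg]
      · change Y (Y (b 2)) = b 2
        rw [b2, Yw', Yw']
      · change Y (Y (b 3)) = b 3
        rw [b3, YMw', map_neg, YMw', neg_neg]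
    have hYM : Y ∘ₗ M = - (M ∘ₗ Y) := by
      apply b.ext
      intro i
      fin_cases i
      · change Y (M (b 0)) = - M (Y (b 0))
        rw [b0, YMw, Yw]
      · change Y (M (b 1)) = - M (Y (b 1))
        rw [b1, YMw, hM, map_smul, Yw, map_neg, hM, neg_neg]
      · change Y (M (b 2)) = - M (Y (b 2))
        rw [b2, YMw', Yw']
      · change Y (M (b 3)) = - M (Y (b 3))
        rw [b3, YMw', hM, map_smul, Yw', map_neg, hM, neg_neg]
    have hYB : LinearMap.compl₁₂ B Y Y = B := by
      apply LinearMap.BilinForm.ext_basis b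
      intro i j
      rw [LinearMap.compl₁₂_apply]
      fin_cases i <;> fin_cases j <;>
      simp only [Fin.zero_eta, Fin.mk_one, Fin.reduceFinMk, b0, b1, b2, b3, Yw, YMw, Yw', YMw', map_neg,
        LinearMap.neg_apply, h0, h0', h1, h1', hw3, hw4, e1, e2, e3, e4, e5, e6, hB.alt, neg_zero,
        neg_neg]
    refine ⟨LinearEquiv.ofLinearMap Y Y hYY hYY, fun u v => LinearMap.congr_fun₂ hYB u v,
      fun v => LinearMap.congr_fun hYY v, ⟨M w, ?_⟩, ⟨w, ?_⟩, fun v => LinearMap.congr_fun hYM v⟩
    · change Y (M w) ≠ M w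
      rw [YMw]
      intro h
      have h5 : (2 : F) • M w = 0 := by
        rw [two_smul]
        nth_rewrite 1 [← h]
        exact neg_add_cancel _
      exact hMw0 ((smul_eq_zero.1 h5).resolve_left h2)
    · change Y w ≠ - w
      rw [Yw]
      intro h
      have h5 : (2 : F) • w = 0 := by
        rw [two_smul]
        nth_rewrite 1 [h]
        exact neg_add_cancel _
      exact hw0 ((smul_eq_zero.1 h5).resolve_left h2)
  · let Z : V →ₗ[F] V := b.constr F ![w', M w', - w, - M w]
    have Zw : Z w = w' := by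
      have := b.constr_basis F ![w', M w', - w, - M w] 0
      rw [b0] at this
      exact this
    have ZMw : Z (M w) = M w' := by
      have := b.constr_basis F ![w', M w', - w, - M w] 1
      rw [b1] at this
      exact this
    have Zw' : Z w' = - w := by
      have := b.constr_basis F ![w', M w', - w, - M w] 2
      rw [b2] at this
      exact this
    have ZMw' : Z (M w') = - M w := by
      have := b.constr_basis F ![w', M w', - w, - M w] 3
      rw [b3] at this
      exact this
    have hZZ : Z ∘ₗ Z = - LinearMap.id := by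
      apply b.ext
      intro i
      fin_cases i
      · change Z (Z (b 0)) = - b 0
        rw [b0, Zw, Zw']
      · change Z (Z (b 1)) = - b 1
        rw [b1, ZMw, ZMw']
      · change Z (Z (b 2)) = - b 2
        rw [b2, Zw', map_neg, Zw]
      · change Z (Z (b 3)) = - b 3
        rw [b3, ZMw', map_neg, ZMw]
    have hZM : Z ∘ₗ M = M ∘ₗ Z := by
      apply b.ext
      intro i
      fin_cases i
      · change Z (M (b 0)) = M (Z (b 0))
        rw [b0, ZMw, Zw]
      · change Z (M (b 1)) = M (Z (b 1))
        rw [b1, ZMw, hM, map_smul, Zw, hM]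
      · change Z (M (b 2)) = M (Z (b 2))
        rw [b2, ZMw', Zw', map_neg]
      · change Z (M (b 3)) = M (Z (b 3))
        rw [b3, ZMw', hM, map_smul, Zw', map_neg, hM, smul_neg]
    have hZB : LinearMap.compl₁₂ B Z Z = B := by
      apply LinearMap.BilinForm.ext_basis b
      intro i j
      rw [LinearMap.compl₁₂_apply]
      fin_cases i <;> fin_cases j <;>
      simp only [Fin.zero_eta, Fin.mk_one, Fin.reduceFinMk, b0, b1, b2, b3, Zw, ZMw, Zw', ZMw', map_neg,
        LinearMap.neg_apply, h0, h0', h1, h1', hw3, hw4, e1, e2, e3, e4, e5, e6, hB.alt, neg_zero,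
        neg_neg]
    refine ⟨LinearEquiv.ofLinearMap Z (-Z) ?_ ?_, fun u v => LinearMap.congr_fun₂ hZB u v,
      fun v => LinearMap.congr_fun hZZ v, fun v => LinearMap.congr_fun hZM v⟩
    · rw [LinearMap.comp_neg, hZZ, neg_neg]
    · rw [LinearMap.neg_comp, hZZ, neg_neg]

end Four

end Cfsg.Agent.H955
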